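import Cfsg.Agent.Lib.ToddCox.Rep
set_option autoImplicit false
set_option maxRecDepth 100000
namespace Cfsg.Agent.Lib.ToddCox.M11T
def T_0 : ℕ := 0xe4003e000e00040000f40037000ec003500104003f000f00036000e80033000d00030000b000320009c0026000940031000a8002b0008c0022000bc002e000b40021000a4002800090001f00080001500064001b00070001a00074001800038000d0007800140002400080003c000700044001700058000c0001400040004c00120004000060002c000a0000c0001000080000
def T_1 : ℕ := 0x104003a000ec003c000e0003e000fc0040000e4003d000d00036000cc0037000d4002e000c40029000bc0032000b40025000980023000c0002800088002b000b00020000a800270007c002400084001600074001500048001800044001a0004c001e00070000b0005c001b00064000a0003c000700020000500050001000010000d0003800020003000090000400060000c0000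
def T_2 : ℕ := 0x104003b000e8003e000dc003c00100003f000d80034000f40039000cc0038000d40030000bc0032000c40029000a000240008c0026000b8002d00084002a00080002c000ac001f0009c00250008800160007400140006c00110006000190005c001e0002c001c0004c001200068000a0003c00060001400080005400100000c000c00008000e000340001000240007000100000
def T_3 : ℕ := 0xf40038000fc003700104003c000d4003a000d00040000f80033000ec0039000d8002f000c00031000c8002c00090002e000ac002a0009c0021000a4002000094002d0007c0022000a000260008c001a0005000130005c001e0005400100006c000c00064001d00070000e0001c00180001800120003400160002400030002c000200044000f000040004000280008000140000
def T_4 : ℕ := 0x104001e000fc003100094000b000a80018000dc0026000e40023000d40030000200016000f800340007000240005c001b00044003b000a4000d000100038000f4002e000d8001d00084001a00008004000088002f000b0002000048003a000b40032000280014000300019000ac0010000180003000a00013000f000150002400330001c000f00014002700038001f000000001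
end Cfsg.Agent.Lib.ToddCox.M11T
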